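-- Team project CHO (S1083): package [COMM-B2] (helper65).
import Mathlib
import Cfsg.Agent.Lib.Helper99.CHO.Defs

set_option autoImplicit false
open scoped MatrixGroups
open Matrix

namespace Cfsg.Agent.Lib.Helper65.CHO
open Cfsg.Agent.Lib.Helper99.CHO

universe u

/-- A matrix with vanishing off-diagonal entries is `diagonal` of its diagonal. -/
theorem eq_diag65 {ι : Type} [DecidableEq ι] [Fintype ι] {K : Type u} [Field K]
    (M : Matrix ι ι K) (h : ∀ i j, i ≠ j → M i j = 0) :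
    M = Matrix.diagonal (fun i => M i i) := by
  ext i j
  by_cases hij : i = j
  · subst hij; simp
  · rw [Matrix.diagonal_apply_ne _ hij]; exact h i j hij

/-- Two elements of `GL` with vanishing off-diagonal entries commute. -/
theorem diag_comm65 {ι : Type} [DecidableEq ι] [Fintype ι] {K : Type u} [Field K]
    (d₁ d₂ : GL ι K)
    (h₁ : ∀ i j, i ≠ j → (d₁ : Matrix ι ι K) i j = 0)
    (h₂ : ∀ i j, i ≠ j → (d₂ : Matrix ι ι K) i j = 0) : d₁ * d₂ = d₂ * d₁ := by
  apply Units.ext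
  rw [Units.val_mul, Units.val_mul, eq_diag65 _ h₁, eq_diag65 _ h₂,
    Matrix.diagonal_mul_diagonal, Matrix.diagonal_mul_diagonal]
  congr 1
  funext i
  exact mul_comm _ _

/-- [COMM-B2] commutators of diagonal isometries are trivial, hence in `R`. -/
theorem pkgCommB2 : PkgCommB2.{u} := by
  intro K _ d₁ hd₁ d₂ hd₂
  have hc : d₁ * d₂ = d₂ * d₁ := diag_comm65 d₁ d₂ hd₁.2 hd₂.2
  have h1 : d₁ * d₂ * d₁⁻¹ * d₂⁻¹ = 1 := by
    rw [hc]; group
  rw [h1]
  exact Subgroup.one_mem _

end Cfsg.Agent.Lib.Helper65.CHO
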